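import Cfsg.Agent.Lib.Helper74.Quad.Defs
import Cfsg.Agent.Lib.Helper89.SL2Basic

/-!
# S2787, package [PSL2]: an element of order `p` of `PSL₂(F)` (odd characteristic `p`) and a
conjugate `v` with `(u v u)² = 1`, `v u² ≠ 1`
-/

set_option autoImplicit false

namespace Cfsg.Agent.Lib.Helper77.Quad

open Matrix Matrix.SpecialLinearGroup
open Cfsg.Agent.Lib.Helper5.SL2 Cfsg.Agent.Lib.Helper89

variable {F : Type*} [Field F]

theorem weyl_sq (s : F) (hs : s ≠ 0) :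
    (uSL s * lSL (-s⁻¹) * uSL s) * (uSL s * lSL (-s⁻¹) * uSL s) =
      (-1 : SpecialLinearGroup (Fin 2) F) := by
  apply sl_ext <;>
    simp only [sl_mul_00, sl_mul_01, sl_mul_10, sl_mul_11, uSL_00, uSL_01, uSL_10, uSL_11,
      lSL_00, lSL_01, lSL_10, lSL_11, sl_neg_apply, sl_one_00, sl_one_01, sl_one_10, sl_one_11] <;>
    field_simp <;> ring

theorem weyl_conj (s : F) (hs : s ≠ 0) :
    (uSL s * lSL (-s⁻¹) * uSL s) * uSL s * (uSL s * lSL (-s⁻¹) * uSL s)⁻¹ = lSL (-s⁻¹) := by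
  apply sl_ext <;>
    simp only [sl_mul_00, sl_mul_01, sl_mul_10, sl_mul_11, sl_inv_00, sl_inv_01, sl_inv_10,
      sl_inv_11, uSL_00, uSL_01, uSL_10, uSL_11, lSL_00, lSL_01, lSL_10, lSL_11] <;>
    field_simp <;> ring

theorem low_up_10 (s : F) : (lSL (-s⁻¹) * uSL s * uSL s).1 1 0 = -s⁻¹ := by
  simp only [sl_mul_00, sl_mul_01, sl_mul_10, sl_mul_11, uSL_00, uSL_01, uSL_10, uSL_11,
    lSL_00, lSL_01, lSL_10, lSL_11]
  ring

theorem pkgPSL2 : Cfsg.Agent.Lib.Helper74.Quad.PkgPSL2 := by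
  intro F _ _ p _ _ hp2 u hu1 hup
  obtain ⟨U₀, rfl⟩ := QuotientGroup.mk_surjective u
  have hc : U₀ ^ p ∈ Subgroup.center (SpecialLinearGroup (Fin 2) F) := by
    rw [← QuotientGroup.eq_one_iff, QuotientGroup.mk_pow]; exact hup
  obtain ⟨U, hUU, hUp⟩ : ∃ U : SpecialLinearGroup (Fin 2) F,
      (U : SpecialLinearGroup (Fin 2) F ⧸ Subgroup.center (SpecialLinearGroup (Fin 2) F)) = U₀ ∧
        U ^ p = 1 := by
    rcases (mem_center_iff_eq _).mp hc with h | h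
    · exact ⟨U₀, rfl, h⟩
    · refine ⟨-U₀, ?_, ?_⟩
      · have e : -U₀ = U₀ * (-1) := (mul_neg_one U₀).symm
        rw [e, QuotientGroup.mk_mul, (QuotientGroup.eq_one_iff (-1)).mpr neg_one_mem_center,
          mul_one]
      · have hodd : Odd p := (Fact.out : p.Prime).odd_of_ne_two hp2
        rw [Odd.neg_pow hodd, h, neg_neg]
  have hUne : U ≠ 1 := by
    rintro rfl
    apply hu1
    rw [← hUU]; rfl
  have hpg : IsPGroup p ↥(Subgroup.zpowers U) :=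
    IsPGroup.of_card (n := 1) (by rw [Nat.card_zpowers, orderOf_eq_prime hUp hUne, pow_one])
  obtain ⟨P, hP⟩ := hpg.exists_le_sylow
  have hUP : U ∈ P := hP (Subgroup.mem_zpowers U)
  obtain ⟨g, hg⟩ := exists_conj_eq p P
  obtain ⟨s, hs⟩ := (hg U).mp hUP
  have hs0 : s ≠ 0 := by
    rintro rfl
    apply hUne
    rw [hs, uSL_zero]; group
  subst hs
  have hW2 := weyl_sq s hs0
  have hWc := weyl_conj s hs0
  obtain ⟨W, hW⟩ : ∃ W : SpecialLinearGroup (Fin 2) F, W = uSL s * lSL (-s⁻¹) * uSL s := ⟨_, rfl⟩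
  rw [← hW] at hW2 hWc
  refine ⟨((g * W * g⁻¹ : SpecialLinearGroup (Fin 2) F) :
    SpecialLinearGroup (Fin 2) F ⧸ Subgroup.center (SpecialLinearGroup (Fin 2) F)), ?_, ?_⟩
  · rw [← hUU]
    simp only [← QuotientGroup.mk_inv, ← QuotientGroup.mk_mul]
    rw [QuotientGroup.eq_one_iff]
    have e : g * uSL s * g⁻¹ * (g * W * g⁻¹ * (g * uSL s * g⁻¹) * (g * W * g⁻¹)⁻¹) *
        (g * uSL s * g⁻¹) *
        (g * uSL s * g⁻¹ * (g * W * g⁻¹ * (g * uSL s * g⁻¹) * (g * W * g⁻¹)⁻¹) *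
        (g * uSL s * g⁻¹)) =
        g * ((uSL s * (W * uSL s * W⁻¹) * uSL s) * (uSL s * (W * uSL s * W⁻¹) * uSL s)) * g⁻¹ := by
      group
    rw [e, hWc, ← hW, hW2, conj_mem_center_iff]
    exact neg_one_mem_center
  · rw [← hUU]
    simp only [← QuotientGroup.mk_inv, ← QuotientGroup.mk_mul]
    rw [Ne, QuotientGroup.eq_one_iff]
    have e : g * W * g⁻¹ * (g * uSL s * g⁻¹) * (g * W * g⁻¹)⁻¹ * (g * uSL s * g⁻¹) *
        (g * uSL s * g⁻¹) = g * ((W * uSL s * W⁻¹) * uSL s * uSL s) * g⁻¹ := by group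
    rw [e, hWc, conj_mem_center_iff, mem_center_iff_eq]
    have h10 := low_up_10 s
    have hsi : s⁻¹ ≠ 0 := inv_ne_zero hs0
    rintro (h | h)
    · rw [h, sl_one_10] at h10
      exact hsi (neg_eq_zero.mp h10.symm)
    · rw [h, sl_neg_apply, sl_one_10, neg_zero] at h10
      exact hsi (neg_eq_zero.mp h10.symm)

end Cfsg.Agent.Lib.Helper77.Quad
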